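import Cfsg.Agent.SqfDeg.Nilpotent
import Cfsg.Agent.Coprime.Generation
import Cfsg.Agent.LocalP.PClosed

/-!
Groups with squarefree character degrees: normal `p`-subgroups of `G ⧸ F(G)` have order at most
`p`.
-/

set_option autoImplicit false
set_option linter.style.haveILetI false

noncomputable section

namespace Cfsg.Agent.SqfDeg

open Cfsg Subgroup
open scoped Classical
open Cfsg.Agent.CharDeg

universe u

/-- The derived subgroup of a nilpotent group lies in the Frattini subgroup. -/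
theorem derived_le_frattini_of_nilpotent (H : Type u) [Group H] [Finite H] [Group.IsNilpotent H] :
    _root_.commutator H ≤ frattini H := by
  refine le_iInf₂ fun M (hM : IsCoatom M) => ?_
  haveI : M.Normal := Subgroup.NormalizerCondition.normal_of_coatom M
    (Group.normalizerCondition_of_isNilpotent (G := H)) hM
  by_contra h
  haveI : Nontrivial (H ⧸ M) := QuotientGroup.nontrivial_iff.2 hM.1
  have htop : _root_.commutator H ⊔ M = ⊤ := hM.2 _ (right_lt_sup.2 h)
  apply (Group.IsSolvable.commutator_lt_top_of_nontrivial (G := H ⧸ M)).ne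
  have := congrArg (Subgroup.map (QuotientGroup.mk' M)) htop
  rw [Subgroup.map_sup, QuotientGroup.map_mk'_self, sup_bot_eq, _root_.commutator_def,
    map_commutator, map_top_of_surjective _ (QuotientGroup.mk'_surjective M)] at this
  exact this

/-- An element killed by every linear character lies in the derived subgroup. -/
theorem mem_commutator_of_forall_lin {H : Type u} [Group H] [Finite H] {x : H}
    (h : ∀ w : H →* ℂˣ, w x = 1) : x ∈ _root_.commutator H := by
  by_contra hx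
  rw [← Abelianization.ker_of, MonoidHom.mem_ker] at hx
  obtain ⟨w, hw⟩ := exists_lin_ne (B := Abelianization H) (fun a b => mul_comm a b) hx
  exact hw (h (w.comp Abelianization.of))

variable {G : Type u} [Group G] [Finite G]

/-- A subgroup `K` containing `A` between `A` and `L` with a squarefree degree bound. -/
theorem relIndex_dvd_prime {p : ℕ} [hp : Fact p.Prime] {F L K : Subgroup G} [L.Normal]
    (hFK : F ≤ K) {n : ℕ} (hL : F.relIndex L = p ^ n) (hsq : Squarefree K.index) :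
    K.relIndex L ∣ p := by
  have h1 : K.relIndex L ∣ p ^ n := hL ▸ relIndex_dvd_of_le_left L hFK
  obtain ⟨i, -, hi⟩ := (Nat.dvd_prime_pow hp.out).1 h1
  rcases Nat.lt_or_ge i 2 with hlt | hge
  · rw [hi]
    interval_cases i
    · rw [pow_zero]; exact one_dvd _
    · rw [pow_one]
  · exact absurd (hsq p ((by rw [hi, ← sq]; exact pow_dvd_pow p hge : p * p ∣ K.relIndex L).trans
      (LocalP.relIndex_dvd_index K L))) (by rw [Nat.isUnit_iff]; exact hp.out.ne_one)

theorem mul_mul_inv_self_left {A : Type*} [CommGroup A] (a b : A) : a * (b * a⁻¹) = b := by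
  rw [mul_comm, inv_mul_cancel_right]

theorem quot_eq_of_mul_eq {A : Type*} [CommGroup A] {a b c d : A} (h : a * b = c * d) :
    a * c⁻¹ = d * b⁻¹ := by
  rw [mul_inv_eq_iff_eq_mul, mul_right_comm, eq_mul_inv_iff_mul_eq, h, mul_comm]

/-- A subgroup of index `p` over a normal subgroup with `p`-group quotient is normal. -/
theorem normal_of_prime_index_mod {p : ℕ} [hp : Fact p.Prime] (F L : Subgroup G) [F.Normal]
    {K : Subgroup G} (hKL : K ≤ L) (hFK : F ≤ K) {n : ℕ} (hL : F.relIndex L = p ^ n)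
    (hK : (K.subgroupOf L).index = p) : (K.subgroupOf L).Normal := by
  set f := QuotientGroup.mk' (F.subgroupOf L) with hf
  have hker : f.ker ≤ K.subgroupOf L := by
    rw [hf, QuotientGroup.ker_mk']
    exact fun x hx => hFK hx
  have hP : IsPGroup p (L ⧸ F.subgroupOf L) :=
    IsPGroup.of_card (n := n) ((index_eq_card _).symm.trans hL)
  haveI := hP.isNilpotent
  have hidx : ((K.subgroupOf L).map f).index = p := by
    rw [index_map_eq _ (QuotientGroup.mk'_surjective _) hker, hK]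
  have hco : IsCoatom ((K.subgroupOf L).map f) := by
    refine ⟨fun h => hp.out.ne_one (by rw [← hidx, h, index_top]), fun M hM => ?_⟩
    rcases (Nat.dvd_prime hp.out).1 (hidx ▸ index_dvd_of_le hM.le) with h | h
    · exact index_eq_one.1 h
    · refine absurd (le_antisymm hM.le (relIndex_eq_one.1 ?_)) hM.ne
      have h' := relIndex_mul_index hM.le
      rw [hidx, h] at h'
      exact (Nat.mul_eq_right hp.out.ne_zero).1 h' 
  haveI : ((K.subgroupOf L).map f).Normal := Subgroup.NormalizerCondition.normal_of_coatom _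
    (Group.normalizerCondition_of_isNilpotent) hco
  rw [← comap_map_eq_self hker]
  infer_instance

/-- Stabilisers of linear characters of a `p'`-group in a group with `p`-group quotient: if all
have index at most `p`, then a subgroup of index at most `p` fixes all. -/
theorem exists_common_stab {p : ℕ} [hp : Fact p.Prime] (Q F L : Subgroup G) [Q.Normal] [F.Normal]
    [L.Normal] (hFL : F ≤ L) (hQ : (Nat.card Q).Coprime p) {n : ℕ} (hL : F.relIndex L = p ^ n)
    (hfix : ∀ w : Q →* ℂˣ, F ≤ lstab Q w) (hpow : ∀ g ∈ L, ∃ k : ℕ, g ^ p ^ k ∈ F)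
    (hidx : ∀ w : Q →* ℂˣ, Squarefree (lstab Q w).index) :
    ∃ K : Subgroup G, F ≤ K ∧ K ≤ L ∧ K.relIndex L ∣ p ∧ ∀ w : Q →* ℂˣ, K ≤ lstab Q w := by
  by_cases hall : ∀ w : Q →* ℂˣ, L ≤ lstab Q w
  · exact ⟨L, hFL, le_rfl, by rw [relIndex_self]; exact one_dvd _, hall⟩
  push Not at hall
  obtain ⟨w₁, hw₁⟩ := hall
  have hd : ∀ w : Q →* ℂˣ, (lstab Q w).relIndex L ∣ p := fun w =>
    relIndex_dvd_prime (hfix w) hL (hidx w)
  -- proper stabilisers inside `L` are maximal
  have hmax : ∀ w : Q →* ℂˣ, ∀ M : Subgroup G, lstab Q w ⊓ L ≤ M → M ≤ L →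
      M = lstab Q w ⊓ L ∨ M = L := by
    intro w M h1 h2
    have h3 := relIndex_mul_relIndex _ _ _ h1 h2
    rw [inf_relIndex_right] at h3
    have h4 : M.relIndex L ∣ p := (Dvd.intro_left _ h3).trans (hd w)
    rcases (Nat.dvd_prime hp.out).1 h4 with h5 | h5
    · exact Or.inr (le_antisymm h2 (relIndex_eq_one.1 h5))
    · left
      refine le_antisymm (relIndex_eq_one.1 ?_) h1
      have h6 := hd w
      rw [← h3, h5] at h6
      exact Nat.dvd_one.1 (Nat.dvd_of_mul_dvd_mul_right hp.out.pos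
        (by rw [one_mul]; exact h6))
  refine ⟨lstab Q w₁ ⊓ L, le_inf (hfix w₁) hFL, inf_le_right, by
    rw [inf_relIndex_right]; exact hd w₁, fun w₂ => ?_⟩
  by_contra hne
  have hw₂ : ¬ L ≤ lstab Q w₂ := fun h => hne (inf_le_right.trans h)
  have hprop : ∀ {w : Q →* ℂˣ}, ¬ L ≤ lstab Q w → lstab Q w ⊓ L ≠ L := fun h h' =>
    h (h' ▸ inf_le_left)
  have h21 : ¬ lstab Q w₁ ⊓ L ≤ lstab Q w₂ ⊓ L := fun h => hne (h.trans inf_le_left)
  have hjoin : lstab Q w₁ ⊓ L ⊔ lstab Q w₂ ⊓ L = L := by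
    rcases hmax w₂ _ le_sup_right (sup_le inf_le_right inf_le_right) with h | h
    · exact absurd (h ▸ le_sup_left) h21
    · exact h
  -- an element fixing the product but not the first character
  obtain ⟨σ, ⟨hσ, hσL⟩, hσ1⟩ : ∃ σ ∈ lstab Q (w₁ * w₂) ⊓ L, σ ∉ lstab Q w₁ := by
    by_contra h
    push Not at h
    have hle : lstab Q (w₁ * w₂) ⊓ L ≤ lstab Q w₁ ⊓ L := fun x hx => ⟨h x hx, hx.2⟩
    rcases hmax (w₁ * w₂) _ hle inf_le_right with h' | h'
    · apply h21
      intro x hx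
      refine ⟨?_, hx.2⟩
      have hx12 : x ∈ lstab Q (w₁ * w₂) ⊓ L := h' ▸ hx
      have e1 : cjl Q x w₁ = w₁ := mem_lstab.1 hx.1
      have e2 : cjl Q x (w₁ * w₂) = w₁ * w₂ := mem_lstab.1 hx12.1
      rw [cjl_mul, e1, mul_right_inj] at e2
      exact mem_lstab.2 e2
    · exact hprop hw₁ h'
  apply hσ1
  set v := cjl Q σ w₁ * w₁⁻¹ with hv
  have hv2 : v = w₂ * (cjl Q σ w₂)⁻¹ := by
    have e : cjl Q σ w₁ * cjl Q σ w₂ = w₁ * w₂ := by rw [← cjl_mul]; exact mem_lstab.1 hσ
    refine MonoidHom.ext fun a => ?_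
    exact quot_eq_of_mul_eq (DFunLike.congr_fun e a)
  have hconj : ∀ w : Q →* ℂˣ, ∀ c ∈ lstab Q w ⊓ L, σ * c * σ⁻¹ ∈ lstab Q w := by
    intro w c hc
    haveI : ((lstab Q w ⊓ L).subgroupOf L).Normal := by
      have hdw : ((lstab Q w ⊓ L).subgroupOf L).index ∣ p := by
        show (lstab Q w ⊓ L).relIndex L ∣ p
        rw [inf_relIndex_right]
        exact hd w
      rcases (Nat.dvd_prime hp.out).1 hdw with h | h
      · rw [index_eq_one.1 h]; infer_instance
      · exact normal_of_prime_index_mod F L inf_le_right (le_inf (hfix w) hFL) hL h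
    have h := (inferInstance : ((lstab Q w ⊓ L).subgroupOf L).Normal).conj_mem ⟨c, hc.2⟩
      (mem_subgroupOf.2 hc) ⟨σ, hσL⟩
    exact (mem_subgroupOf.1 h).1
  have hfixσ : ∀ w : Q →* ℂˣ, ∀ c ∈ lstab Q w ⊓ L, cjl Q c (cjl Q σ w) = cjl Q σ w := by
    intro w c hc
    have e1 := mem_lstab.1 (hconj w c hc)
    rw [cjl_cjl, show σ * c = σ * c * σ⁻¹ * σ by group, ← cjl_cjl, e1]
  have hvL : L ≤ lstab Q v := by
    rw [← hjoin]
    refine sup_le (fun c hc => ?_) (fun c hc => ?_) <;> rw [mem_lstab]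
    · rw [hv, cjl_mul, cjl_inv, hfixσ w₁ c hc, mem_lstab.1 hc.1]
    · rw [hv2, cjl_mul, cjl_inv, hfixσ w₂ c hc, mem_lstab.1 hc.1]
  have hσv : cjl Q σ w₁ = w₁ * v := MonoidHom.ext fun a => (mul_mul_inv_self_left (w₁ a) (cjl Q σ w₁ a)).symm
  have hpw : ∀ (m : ℕ) (a : Q), cjl Q (σ ^ m) w₁ a = w₁ a * v a ^ m := by
    intro m
    induction m with
    | zero => simp
    | succ m ih =>
      intro a
      rw [pow_succ, ← cjl_cjl, cjl_apply, ih, ← cjl_apply σ w₁, ← cjl_apply σ v,
        mem_lstab.1 (hvL hσL), hσv, MonoidHom.mul_apply, mul_assoc, ← pow_succ']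
  obtain ⟨k, hk⟩ := hpow σ hσL
  rw [mem_lstab, hσv]
  refine MonoidHom.ext fun a => ?_
  have h1 : v a ^ p ^ k = 1 := by
    have := hpw (p ^ k) a
    rw [mem_lstab.1 (hfix w₁ hk)] at this
    exact left_eq_mul.1 this
  have h2 : v a ^ Nat.card Q = 1 := by rw [← map_pow, pow_card_eq_one', map_one]
  have h3 := pow_gcd_eq_one.2 ⟨h1, h2⟩
  rw [(Nat.Coprime.pow_left k hQ.symm).gcd_eq_one, pow_one] at h3
  rw [MonoidHom.mul_apply, h3, mul_one]

/-- Normal `p`-extensions of the Fitting subgroup have relative index at most `p`. -/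
theorem relIndex_fitting_dvd [Group.IsSolvable G] {p : ℕ} [hp : Fact p.Prime]
    (hsq : ∀ χ : IrrCharacter G, Squarefree (charDegree (χ : G → ℂ))) (L : Subgroup G) [L.Normal]
    (hFL : fittingSubgroup G ≤ L) {n : ℕ} (hL : (fittingSubgroup G).relIndex L = p ^ n) :
    (fittingSubgroup G).relIndex L ∣ p := by
  set F := fittingSubgroup G with hF
  set P := pCore p G with hP
  set Q := F ⊓ pPrimeCore p G with hQ
  have hQc : (Nat.card Q).Coprime p :=
    Cores.pPrimeCore_coprime.coprime_dvd_left (card_dvd_of_le inf_le_right)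
  have hPQ : P ≤ centralizer (Q : Set G) := fun x hx y hy =>
    Cores.pCore_commute_pPrimeCore hx y hy.2
  have hFle : F ≤ P ⊔ Q := by
    rw [hF, Cores.fittingSubgroup_eq_iSup_pCore]
    refine iSup_le fun r => ?_
    haveI : Fact (r : ℕ).Prime := ⟨r.2⟩
    rcases eq_or_ne (r : ℕ) p with hr | hr
    · rw [hr]; exact le_sup_left
    · refine le_sup_of_le_right (le_inf Cores.pCore_le_fittingSubgroup
        (Cores.le_pPrimeCore inferInstance ?_))
      obtain ⟨k, hk⟩ := (Cores.pCore_isPGroup (p := (r : ℕ)) (G := G)).exists_card_eq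
      rw [hk]
      exact Nat.Coprime.pow_left k ((Nat.coprime_primes r.2 hp.out).2 hr)
  have hfix : ∀ w : Q →* ℂˣ, F ≤ lstab Q w := fun w =>
    hFle.trans (sup_le (hPQ.trans (le_lstab_of_centralizer w)) (le_lstab w))
  have hpow : ∀ g ∈ L, ∃ k : ℕ, g ^ p ^ k ∈ F := fun g hg => ⟨n, by
    have := (F.subgroupOf L).pow_index_mem (⟨g, hg⟩ : L)
    rw [show (F.subgroupOf L).index = p ^ n from hL, mem_subgroupOf] at this
    exact this⟩
  have hidx : ∀ w : Q →* ℂˣ, Squarefree (lstab Q w).index := fun w => by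
    obtain ⟨χ, hχ⟩ := lstab_index_dvd w
    exact (hsq χ).squarefree_of_dvd hχ
  obtain ⟨K, hFK, hKL, hKd, hK⟩ := exists_common_stab Q F L hFL hQc hL hfix hpow hidx
  suffices hKF : K ≤ F by
    rw [le_antisymm hFK hKF]
    exact hKd
  -- the centraliser of `Q` in `L` is nilpotent
  set M := centralizer (Q : Set G) ⊓ L with hM
  have hMF : M ≤ F := by
    refine Cores.le_fittingSubgroup inferInstance ?_
    suffices h : IsPGroup p (M ⧸ center M) from Group.of_quotient_center_nilpotent h.isNilpotent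
    intro q
    obtain ⟨⟨m, hm⟩, rfl⟩ := QuotientGroup.mk_surjective q
    obtain ⟨k, hk⟩ := hpow m hm.2
    obtain ⟨a, ha, b, hb, hab⟩ := mem_sup_of_normal_right.1 (hFle hk)
    obtain ⟨j, hj⟩ := (Cores.pCore_isPGroup (p := p) (G := G)).exists_card_eq
    have hmem : (m ^ p ^ k) ^ p ^ j ∈ Q := by
      have hc : Commute a b := (hPQ ha b hb).symm
      have ha1 : a ^ p ^ j = 1 := by
        rw [← hj]
        exact congrArg Subtype.val (pow_card_eq_one' (x := (⟨a, ha⟩ : P)))
      rw [← hab, hc.mul_pow, ha1, one_mul]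
      exact pow_mem hb _
    refine ⟨k + j, ?_⟩
    rw [← QuotientGroup.mk_pow, QuotientGroup.eq_one_iff, mem_center_iff]
    intro g
    apply Subtype.ext
    show (g : G) * m ^ p ^ (k + j) = m ^ p ^ (k + j) * g
    rw [pow_add, pow_mul]
    exact (g.2.1 _ hmem).symm
  -- elements of `K` act trivially on `Q ⧸ Q'`
  haveI : Group.IsNilpotent Q := by
    haveI : Group.IsNilpotent F := Cores.fittingSubgroup_isNilpotent
    exact Group.nilpotent_of_mulEquiv (subgroupOfEquivOfLe (inf_le_left : Q ≤ F))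
  intro x hx
  obtain ⟨k, hk⟩ := hpow x (hKL hx)
  -- split off the prime to `p` part of the order
  obtain ⟨a, m, hmp, hord⟩ := Nat.exists_eq_pow_mul_and_not_dvd (orderOf_pos x).ne' p hp.out.ne_one
  have hy : x ^ m ∈ centralizer (Q : Set G) := by
    have hcard : Nat.card (zpowers (x ^ m)) ∣ p ^ a := by
      rw [Nat.card_zpowers]
      refine orderOf_dvd_of_pow_eq_one ?_
      rw [← pow_mul, mul_comm, ← hord, pow_orderOf_eq_one]
    refine Coprime.le_centralizer_of_frattini (A := zpowers (x ^ m))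
      (by rw [normalizer_eq_top]; exact le_top) ?_ ?_ (mem_zpowers _)
    · exact ((Nat.Coprime.pow_left a hQc.symm).coprime_dvd_left hcard).coprime_dvd_right
        (card_subgroup_dvd_card _)
    · intro y hy c hc
      have hyK : y ∈ K := zpowers_le.2 (pow_mem hx m) hy
      have hmemQ : c⁻¹ * y * c * y⁻¹ ∈ Q := by
        rw [show c⁻¹ * y * c * y⁻¹ = c⁻¹ * (y * c * y⁻¹) by group]
        exact mul_mem (inv_mem hc) ((inferInstance : Q.Normal).conj_mem c hc y)
      refine ⟨⟨_, hmemQ⟩, derived_le_frattini_of_nilpotent Q (mem_commutator_of_forall_lin fun w => ?_), rfl⟩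
      have e : (⟨_, hmemQ⟩ : Q) = (⟨c, hc⟩ : Q)⁻¹ * MulAut.conjNormal y ⟨c, hc⟩ :=
        Subtype.ext (by simp [mul_assoc])
      rw [e, map_mul, map_inv, ← cjl_apply, mem_lstab.1 (hK w hyK), inv_mul_cancel]
  have h1 : ((x : G) : G ⧸ F) ^ m = 1 := by
    rw [← QuotientGroup.mk_pow, QuotientGroup.eq_one_iff]
    exact hMF ⟨hy, pow_mem (hKL hx) m⟩
  have h2 : ((x : G) : G ⧸ F) ^ p ^ k = 1 := by
    rw [← QuotientGroup.mk_pow, QuotientGroup.eq_one_iff]
    exact hk
  have h3 := pow_gcd_eq_one.2 ⟨h1, h2⟩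
  rw [(((hp.out.coprime_iff_not_dvd).2 hmp).pow_left k).symm.gcd_eq_one, pow_one] at h3
  exact (QuotientGroup.eq_one_iff x).1 h3

end Cfsg.Agent.SqfDeg
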