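import Cfsg.Agent.CharDeg.Monomial
import Cfsg.Agent.CharDeg.MonomialQuotient
import Cfsg.Agent.Cores.Fitting

/-!
Groups with squarefree character degrees: the Fitting subgroup is metabelian.
-/

set_option autoImplicit false
set_option linter.style.haveILetI false

noncomputable section

namespace Cfsg.Agent.SqfDeg

open Cfsg Subgroup
open scoped Classical

universe u

variable {G : Type u} [Group G]

/-- A join of pairwise commuting abelian subgroups is abelian. -/
theorem iSup_le_centralizer_iSup {ι : Sort*} (K : ι → Subgroup G)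
    (h : ∀ i j, K i ≤ centralizer (K j : Set G)) :
    (⨆ i, K i) ≤ centralizer ((⨆ i, K i : Subgroup G) : Set G) := by
  refine iSup_le fun i => le_centralizer_iff.1 (iSup_le fun j => h j i)

/-- Two subgroups with squarefree degrees of prime power order. -/
theorem comm_commutator_of_pGroup [Finite G] {p : ℕ} [Fact p.Prime] (hG : IsPGroup p G)
    (hsq : ∀ χ : IrrCharacter G, Squarefree (charDegree (χ : G → ℂ))) :
    ∀ a ∈ _root_.commutator G, ∀ b ∈ _root_.commutator G, a * b = b * a := by
  letI := Fintype.ofFinite G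
  refine CharDeg.commutator_comm_of_monomial (m := p) ?_ ?_
  · intro _ χ hχ
    refine CharDeg.monomial_of_abelian_pQuotient (p := p) (Nat.card G) G rfl ⊥ inferInstance
      (fun a ha b hb => by rw [mem_bot.1 ha, mem_bot.1 hb]) (fun g => ?_) χ hχ
    obtain ⟨k, hk⟩ := hG g
    exact ⟨k, mem_bot.2 hk⟩
  · intro χ
    obtain ⟨a, ha⟩ := hG.exists_card_eq
    obtain ⟨d, -, hd, hdd⟩ := Char.irr_degree_dvd_card χ.2
    rw [CharDeg.one_apply, Nat.cast_inj] at hd
    have hdvd : charDegree (χ : G → ℂ) ∣ p ^ a := ha ▸ hd ▸ hdd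
    obtain ⟨i, -, hi⟩ := (Nat.dvd_prime_pow Fact.out).1 hdvd
    have h2 := hsq χ
    rw [hi] at h2
    rcases Nat.lt_or_ge i 2 with hlt | hge
    · interval_cases i
      · left; rw [hi, pow_zero]
      · right; rw [hi, pow_one]
    · exact absurd (h2 p (by rw [← sq]; exact pow_dvd_pow p hge)) (by
        rw [Nat.isUnit_iff]; exact (Fact.out : p.Prime).ne_one)

/-- Squarefree degrees pass to normal subgroups. -/
theorem squarefree_of_normal [Finite G] (N : Subgroup G) [N.Normal]
    (hsq : ∀ χ : IrrCharacter G, Squarefree (charDegree (χ : G → ℂ))) (θ : IrrCharacter N) :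
    Squarefree (charDegree (θ : N → ℂ)) := by
  obtain ⟨χ, hχ⟩ := CharDeg.exists_deg_dvd N θ
  exact (hsq χ).squarefree_of_dvd hχ

/-- With squarefree degrees, the Fitting subgroup is metabelian. -/
theorem fitting_metabelian [Finite G]
    (hsq : ∀ χ : IrrCharacter G, Squarefree (charDegree (χ : G → ℂ))) :
    ⁅⁅fittingSubgroup G, fittingSubgroup G⁆, ⁅fittingSubgroup G, fittingSubgroup G⁆⁆ = ⊥ := by
  set P : Nat.Primes → Subgroup G := fun q => pCore (q : ℕ) G with hP
  set D : Nat.Primes → Subgroup G := fun q => ⁅P q, P q⁆ with hD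
  have hPn : ∀ q, (P q).Normal := fun q => inferInstanceAs (pCore (q : ℕ) G).Normal
  have hdis : ∀ q r, q ≠ r → P q ≤ centralizer (P r : Set G) := by
    intro q r hqr x hx y hy
    haveI : Fact (q : ℕ).Prime := ⟨q.2⟩
    haveI : Fact (r : ℕ).Prime := ⟨r.2⟩
    have hd : Disjoint (P r) (P q) := Cores.pCore_isPGroup.disjoint_of_ne (r : ℕ) (q : ℕ)
      (fun h => hqr (Subtype.ext h.symm)) _ _ Cores.pCore_isPGroup
    exact commute_of_normal_of_disjoint _ _ (hPn r) (hPn q) hd y x hy hx
  have hDle : ∀ q, D q ≤ P q := fun q => by haveI := hPn q; exact commutator_le_left _ _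
  have hDab : ∀ q r, D q ≤ centralizer (D r : Set G) := by
    intro q r
    rcases eq_or_ne q r with rfl | hne
    · haveI : Fact (q : ℕ).Prime := ⟨q.2⟩
      haveI := hPn q
      have h1 := comm_commutator_of_pGroup (G := P q) (p := (q : ℕ)) Cores.pCore_isPGroup
        (squarefree_of_normal (P q) hsq)
      have h2 : D q = (_root_.commutator (P q)).map (P q).subtype := by
        rw [_root_.commutator_def, map_commutator, ← MonoidHom.range_eq_map, range_subtype]
      rw [h2]
      rintro _ ⟨a, ha, rfl⟩ _ ⟨b, hb, rfl⟩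
      exact congrArg Subtype.val (h1 b hb a ha)
    · exact (hDle q).trans ((hdis q r hne).trans (centralizer_le (hDle r)))
  set S := ⨆ q, D q with hS
  have hSab : S ≤ centralizer (S : Set G) := iSup_le_centralizer_iSup D hDab
  have hDn : ∀ q, (D q).Normal := fun q => by haveI := hPn q; exact commutator_normal _ _
  haveI : S.Normal := by
    rw [hS, iSup]
    exact Subgroup.sSup_normal _ (by rintro _ ⟨q, rfl⟩; exact hDn q)
  have hFS : ⁅fittingSubgroup G, fittingSubgroup G⁆ ≤ S := by
    rw [← QuotientGroup.ker_mk' S, ← Subgroup.map_eq_bot_iff, map_commutator,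
      Cores.fittingSubgroup_eq_iSup_pCore, Subgroup.map_iSup, commutator_eq_bot_iff_le_centralizer]
    refine iSup_le_centralizer_iSup _ fun q r => ?_
    rw [← commutator_eq_bot_iff_le_centralizer, ← map_commutator, Subgroup.map_eq_bot_iff,
      QuotientGroup.ker_mk']
    rcases eq_or_ne q r with rfl | hne
    · exact le_iSup D q
    · rw [commutator_eq_bot_iff_le_centralizer.2 (hdis q r hne)]
      exact bot_le
  rw [commutator_eq_bot_iff_le_centralizer]
  exact hFS.trans (hSab.trans (centralizer_le hFS))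

end Cfsg.Agent.SqfDeg
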